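import Mathlib

set_option autoImplicit false
set_option linter.unusedVariables false
set_option linter.style.haveILetI false

/-!
Abelian sections of a group with an automorphism of order `p` with few fixed points.
-/

namespace Cfsg.Agent.AL

/-- nilpotent endomorphisms -/
theorem card_le_ker_pow (k : ℕ) : ∀ {X : Type*} [AddCommGroup X] [Finite X] (δ : X →+ X), (∀ x, δ^[k] x = 0) →
    Nat.card X ≤ Nat.card δ.ker ^ k := by
  induction k with
  | zero =>
    intro X _ _ δ h
    have : Subsingleton X := ⟨fun a b => (h a).trans (h b).symm⟩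
    rw [pow_zero, Nat.card_of_subsingleton (0 : X)]
  | succ k ih =>
    intro X _ _ δ h
    let ρ : δ.range →+ δ.range :=
      { toFun := fun x => ⟨δ (x : X), ⟨(x : X), rfl⟩⟩
        map_zero' := Subtype.ext (map_zero δ)
        map_add' := fun a b => Subtype.ext (map_add δ (a : X) (b : X)) }
    have hρ : ∀ (j : ℕ) (x : δ.range), ((ρ^[j] x : δ.range) : X) = δ^[j] x := by
      intro j
      induction j with
      | zero => intro x; rfl
      | succ j ihj =>
        intro x
        rw [Function.iterate_succ_apply', Function.iterate_succ_apply', ← ihj]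
        rfl
    have h1 := ih ρ (by
      rintro ⟨_, y, rfl⟩
      apply Subtype.ext
      rw [hρ]
      exact h y)
    have h2 : Nat.card ρ.ker ≤ Nat.card δ.ker := by
      apply Nat.card_le_card_of_injective (fun x : ρ.ker => (⟨((x : δ.range) : X), by
        have := x.2
        rw [AddMonoidHom.mem_ker] at this
        exact congrArg Subtype.val this⟩ : δ.ker))
      intro a b hab
      have h := congrArg Subtype.val hab
      exact Subtype.ext (Subtype.ext h)
    have h3 : Nat.card X = Nat.card δ.ker * Nat.card δ.range := by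
      rw [← AddSubgroup.index_ker, AddSubgroup.card_mul_index]
    rw [h3, pow_succ']
    exact Nat.mul_le_mul_left _ (h1.trans (Nat.pow_le_pow_left h2 k))

/-- elementary abelian groups -/
theorem card_le_fix_elementary {X : Type*} [AddCommGroup X] [Finite X] {p : ℕ} (hp : p.Prime) (α : X →+ X)
    (hα : ∀ x, α^[p] x = x) (hpX : ∀ x : X, p • x = 0) : Nat.card X ≤ Nat.card (α - AddMonoidHom.id X).ker ^ p := by
  apply card_le_ker_pow
  let E := AddMonoid.End X
  let a : E := α
  have hpE : ∀ r : E, (p : E) * r = 0 := by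
    intro r
    ext x
    have : ((p : E) * r) x = p • (r x) := by
      rw [← nsmul_eq_mul]; rfl
    rw [this, hpX]; rfl
  have hcomm : Commute a (-1) := (Commute.one_right a).neg_right
  obtain ⟨r, hr⟩ := hcomm.exists_add_pow_prime_eq hp
  have h1 : (-1 : E) ^ p = -1 := by
    rcases hp.eq_two_or_odd' with rfl | ho
    · rw [even_two.neg_one_pow]
      have h2 := hpE 1
      rw [mul_one, Nat.cast_ofNat] at h2
      have h3 : (1 : E) + 1 = 0 := by rw [one_add_one_eq_two]; exact h2
      exact eq_neg_of_add_eq_zero_left h3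
    · exact ho.neg_one_pow
  have h2 : a ^ p = 1 := by
    ext x
    have : (a ^ p) x = α^[p] x := by
      have h3 : ∀ n : ℕ, ((a ^ n : E) : X → X) = (a : X → X)^[n] := fun n => AddMonoid.End.coe_pow X a n
      rw [h3]; rfl
    rw [this, hα]; rfl
  have hcommp : (a + -1) ^ p = 0 := by
    rw [hr, h1, h2, mul_assoc, mul_assoc, hpE, add_zero, add_neg_cancel]
  intro x
  have h4 : ((a + -1) ^ p : E) x = (α - AddMonoidHom.id X)^[p] x := by
    have h3 : ∀ n : ℕ, (((a + -1) ^ n : E) : X → X) = ((a + -1 : E) : X → X)^[n] := fun n => AddMonoid.End.coe_pow X (a + -1) n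
    rw [h3]
    have h5 : ((a + -1 : E) : X → X) = (α - AddMonoidHom.id X : X →+ X) := by
      ext y
      show α y + -y = α y - y
      rw [sub_eq_add_neg]
    rw [h5]
  rw [← h4, hcommp]; rfl

/-- abelian groups of bounded exponent -/
theorem card_le_fix {X : Type*} [AddCommGroup X] [Finite X] {p : ℕ} (hp : p.Prime) (α : X →+ X)
    (hα : ∀ x, α^[p] x = x) {i : ℕ} (hpX : ∀ x : X, p ^ i • x = 0) {c : ℕ} (hc : Nat.card {x : X // α x = x} ≤ c) :
    Nat.card X ≤ c ^ (p * i) := by
  let δ : X →+ X := p • AddMonoidHom.id X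
  have hδ : ∀ x, δ x = p • x := fun x => rfl
  have h1 := card_le_ker_pow i δ (by
    intro x
    have : ∀ j : ℕ, ∀ x, δ^[j] x = p ^ j • x := by
      intro j
      induction j with
      | zero => intro x; simp
      | succ j ih => intro x; rw [Function.iterate_succ_apply, ih, hδ, smul_smul, pow_succ]
    rw [this, hpX])
  refine h1.trans ?_
  rw [pow_mul]
  apply Nat.pow_le_pow_left
  let β : δ.ker →+ δ.ker :=
    { toFun := fun x => ⟨α (x : X), by
        have := x.2
        rw [AddMonoidHom.mem_ker, hδ] at *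
        rw [← map_nsmul, this, map_zero]⟩
      map_zero' := Subtype.ext (map_zero α)
      map_add' := fun a b => Subtype.ext (map_add α (a : X) (b : X)) }
  have hβ : ∀ (j : ℕ) (x : δ.ker), ((β^[j] x : δ.ker) : X) = α^[j] x := by
    intro j
    induction j with
    | zero => intro x; rfl
    | succ j ihj =>
      intro x
      rw [Function.iterate_succ_apply', Function.iterate_succ_apply', ← ihj]
      rfl
  have h2 := card_le_fix_elementary hp β (by
    intro x
    apply Subtype.ext
    rw [hβ, hα]) (by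
    intro x
    apply Subtype.ext
    have := x.2
    rw [AddMonoidHom.mem_ker, hδ] at this
    exact this)
  refine h2.trans (Nat.pow_le_pow_left (le_trans ?_ hc) p)
  apply Nat.card_le_card_of_injective (fun x : (β - AddMonoidHom.id δ.ker).ker => (⟨((x : δ.ker) : X), by
    have := x.2
    rw [AddMonoidHom.mem_ker] at this
    have h3 : β x - x = 0 := this
    rw [sub_eq_zero] at h3
    exact congrArg Subtype.val h3⟩ : {x : X // α x = x}))
  intro a b hab
  have h := congrArg Subtype.val hab
  exact Subtype.ext (Subtype.ext h)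

/-- fixed points in quotients -/
theorem card_fix_quotient {G : Type*} [Group G] [Finite G] (α : G →* G) (N : Subgroup G) [N.Normal]
    (hN : N ≤ N.comap α) : Nat.card {x : G ⧸ N // QuotientGroup.map N N α hN x = x} ≤ Nat.card {g : G // α g = g} := by
  classical
  set C : Set G := {g | α g = g} with hC
  set K : Set G := {g | g⁻¹ * α g ∈ N} with hK
  -- injection
  have hK1 : ∀ g : G, g ∈ K ↔ QuotientGroup.map N N α hN (g : G ⧸ N) = g := by
    intro g
    rw [QuotientGroup.map_mk, eq_comm, QuotientGroup.eq]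
    rfl
  have h1 : Nat.card K ≤ Nat.card N * Nat.card C := by
    have hch : ∀ n : N, ∃ g0 : G, (∃ g : G, g⁻¹ * α g = n) → g0⁻¹ * α g0 = n := by
      intro n
      by_cases h : ∃ g : G, g⁻¹ * α g = n
      · obtain ⟨g, hg⟩ := h
        exact ⟨g, fun _ => hg⟩
      · exact ⟨1, fun h' => absurd h' h⟩
    choose r hr using hch
    rw [← Nat.card_prod]
    have hmem : ∀ (g : K), (g : G) * (r ⟨(g : G)⁻¹ * α g, g.2⟩)⁻¹ ∈ C := by
      intro g
      have h2 := hr ⟨(g : G)⁻¹ * α g, g.2⟩ ⟨g, rfl⟩
      change α ((g : G) * (r ⟨(g : G)⁻¹ * α g, g.2⟩)⁻¹) = (g : G) * (r ⟨(g : G)⁻¹ * α g, g.2⟩)⁻¹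
      generalize r ⟨(g : G)⁻¹ * α g, g.2⟩ = s at *
      have h3 : α s = s * ((g : G)⁻¹ * α g) := by
        have : s⁻¹ * α s = (g : G)⁻¹ * α g := h2
        rw [← this, mul_inv_cancel_left]
      rw [map_mul, map_inv, h3]
      group
    apply Nat.card_le_card_of_injective (fun g : K => ((⟨(g : G)⁻¹ * α g, g.2⟩ : N), (⟨(g : G) * (r ⟨(g : G)⁻¹ * α g, g.2⟩)⁻¹,
      hmem g⟩ : C)))
    intro g g' h
    have h2 : (⟨(g : G)⁻¹ * α g, g.2⟩ : N) = ⟨(g' : G)⁻¹ * α g', g'.2⟩ := congrArg Prod.fst h
    have h3 : (g : G) * (r ⟨(g : G)⁻¹ * α g, g.2⟩)⁻¹ = (g' : G) * (r ⟨(g' : G)⁻¹ * α g', g'.2⟩)⁻¹ :=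
      congrArg (fun x => ((x.2 : C) : G)) h
    rw [congrArg r h2] at h3
    exact Subtype.ext (mul_right_cancel h3)
  have h2 : Nat.card {x : G ⧸ N // QuotientGroup.map N N α hN x = x} * Nat.card N ≤ Nat.card K := by
    rw [← Nat.card_prod]
    apply Nat.card_le_card_of_injective (fun x : {x : G ⧸ N // QuotientGroup.map N N α hN x = x} × N =>
      (⟨(x.1 : G ⧸ N).out * x.2, by
        rw [hK1]
        have h3 : (((x.1 : G ⧸ N).out * (x.2 : G) : G) : G ⧸ N) = x.1 := by
          rw [QuotientGroup.mk_mul, QuotientGroup.out_eq', (QuotientGroup.eq_one_iff (x.2 : G)).2 x.2.2, mul_one]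
        rw [h3]; exact x.1.2⟩ : K))
    rintro ⟨x, n⟩ ⟨y, m⟩ h
    have h4 : ((x : G ⧸ N).out * (n : G)) = (y : G ⧸ N).out * m := congrArg Subtype.val h
    have h5 : (x : G ⧸ N) = y := by
      have := congrArg (fun g : G => (g : G ⧸ N)) h4
      simp only [QuotientGroup.mk_mul, QuotientGroup.out_eq', (QuotientGroup.eq_one_iff (n : G)).2 n.2,
        (QuotientGroup.eq_one_iff (m : G)).2 m.2, mul_one] at this
      exact this
    have h6 : x = y := Subtype.ext h5
    subst h6
    have h7 := mul_left_cancel h4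
    rw [Subtype.ext h7]
  have h3 : 0 < Nat.card N := Nat.card_pos
  have h4 : Nat.card N * Nat.card {x : G ⧸ N // QuotientGroup.map N N α hN x = x} ≤ Nat.card N * Nat.card C := by
    rw [mul_comm]; exact h2.trans h1
  exact Nat.le_of_mul_le_mul_left h4 h3

end Cfsg.Agent.AL
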