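import Cfsg.Agent.AL.PB
import Cfsg.Agent.Solv.Core
import Cfsg.Agent.H76.PSolvable
import Cfsg.Agent.ZJ.SolvFact
import Cfsg.Agent.Cop.Basic
import Cfsg.Agent.S3779

set_option autoImplicit false
set_option linter.unusedVariables false
set_option linter.style.haveILetI false

/-!
Alperin's theorem: solvable groups with an automorphism of order `p` with `p^n` fixed points.
-/

namespace Cfsg.Agent.AL

open Subgroup
open scoped commutatorElement

universe u

variable {G : Type u} [Group G] [Finite G] {α : MulAut G} {p : ℕ}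

/-- restricted automorphism -/
def ra (α : MulAut G) (hp : 0 < p) (hα : α ^ p = 1) (D : Subgroup G) (hD : Inv α D) : MulAut D where
  toFun := fun x => ⟨α x, hD x x.2⟩
  invFun := fun x => ⟨α⁻¹ (x : G), hD.inv hp hα x x.2⟩
  left_inv := fun x => Subtype.ext (MulAut.inv_apply_self G α (x : G))
  right_inv := fun x => Subtype.ext (MulAut.apply_inv_self G α (x : G))
  map_mul' := fun a b => Subtype.ext (map_mul α (a : G) (b : G))

lemma AR.ra {c : ℕ} (hp : 0 < p) (H : AR G α p c) (D : Subgroup G) (hD : Inv α D) : AR D (AL.ra α hp H.pow D hD) p c := by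
  have hβ : ∀ (n : ℕ) (x : D), (((AL.ra α hp H.pow D hD ^ n) x : D) : G) = (α ^ n) (x : G) := by
    intro n
    induction n with
    | zero => intro x; rfl
    | succ n ih => intro x; rw [pow_succ, pow_succ, MulAut.mul_apply, ih]; rfl
  constructor
  · ext x
    rw [hβ, H.pow]; rfl
  · refine le_trans ?_ (card_fix_sub H D)
    apply Nat.card_le_card_of_injective (fun x : {x : D // AL.ra α hp H.pow D hD x = x} => (⟨x.1, congrArg Subtype.val x.2⟩ : {x : D // α x = x}))
    intro a b hab
    have h := congrArg Subtype.val hab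
    exact Subtype.ext h

omit [Finite G] in
lemma ds_le {N : Subgroup G} {a b : ℕ} (hN : derivedSeries G a ≤ N) (hb : derivedSeries N b = ⊥) : derivedSeries G (a + b) = ⊥ := by
  have h : ∀ j, derivedSeries G (a + j) ≤ (derivedSeries N j).map N.subtype := by
    intro j
    induction j with
    | zero =>
      have : (derivedSeries N 0).map N.subtype = N := by
        rw [derivedSeries_zero, ← MonoidHom.range_eq_map, range_subtype]
      rw [this]; exact hN
    | succ j ih =>
      change ⁅derivedSeries G (a + j), derivedSeries G (a + j)⁆ ≤ (⁅derivedSeries N j, derivedSeries N j⁆ : Subgroup N).map N.subtype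
      rw [map_commutator]
      exact commutator_mono ih ih
  have h1 := h b
  rw [hb, Subgroup.map_bot] at h1
  exact le_bot_iff.1 h1

/-- the constant -/
def bC (p n : ℕ) : ℕ := ((p ^ n) ^ (p * 1)).factorial

theorem core_free [hpf : Fact p.Prime] (hG : Group.IsSolvable G) (hcore : pPrimeCore p G = ⊥) {n : ℕ} (H : AR G α p (p ^ n)) :
    derivedSeries G (bC p n + lC p n) = ⊥ := by
  have hp := hpf.out
  set P := pCore p G with hP
  have hPp : IsPGroup p P := Solv.pCore_isPGroup p
  haveI hPc : P.Characteristic := inferInstance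
  have hPi : Inv α P := Inv.of_char P
  have hCP : centralizer (P : Set G) ≤ P := H76.centralizer_pCore_le (ZJ.isPSolvable_of_isSolvable p hG) hcore
  set F := (frattini P).map P.subtype with hF
  haveI hFn : F.Normal := ConjAct.normal_of_characteristic_of_normal
  have hFi : Inv α F := by
    rintro _ ⟨x, hx, rfl⟩
    exact ⟨ra α hp.pos H.pow P hPi x, Inv.of_char (α := ra α hp.pos H.pow P hPi) (frattini P) x hx, rfl⟩
  have HQ := H.quot hp.pos F hFi
  haveI : Group.IsSolvable G := hG
  haveI : Group.IsSolvable (G ⧸ F) := inferInstance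
  haveI : (P.map (QuotientGroup.mk' F)).Normal := Subgroup.Normal.map inferInstance _ (QuotientGroup.mk'_surjective F)
  have h1 := derivedSeries_centralizes hp HQ (Inv.map_mk hp.pos H.pow F hFi hPi) (by
    rintro _ ⟨x, hx, rfl⟩ _ ⟨y, hy, rfl⟩
    rw [← commutatorElement_eq_one_iff_mul_comm, ← map_commutatorElement]
    refine (QuotientGroup.eq_one_iff _).2 ⟨⁅(⟨x, hx⟩ : P), ⟨y, hy⟩⁆, ?_, rfl⟩
    exact Solv.commutator_le_frattini_of_pGroup hPp (commutator_mem_commutator (mem_top _) (mem_top _))) (i := 1) (by
    rintro _ ⟨x, hx, rfl⟩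
    rw [← map_pow]
    refine (QuotientGroup.eq_one_iff _).2 ⟨(⟨x, hx⟩ : P) ^ p ^ 1, ?_, rfl⟩
    change (⟨x, hx⟩ : P) ^ p ^ 1 ∈ frattini P
    rw [pow_one]
    exact Solv.pow_mem_frattini_of_pGroup hPp _)
  have hX : derivedSeries G (bC p n) ≤ P := by
    have hcomm : ∀ x ∈ derivedSeries G (bC p n), ∀ k ∈ P, x * k * x⁻¹ * k⁻¹ ∈ F := by
      intro x hx k hk
      have h2 : QuotientGroup.mk' F x ∈ derivedSeries (G ⧸ F) (bC p n) :=
        map_derivedSeries_le_derivedSeries (QuotientGroup.mk' F) (bC p n) ⟨x, hx, rfl⟩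
      have h3 := mem_centralizer_iff.1 (h1 h2) (QuotientGroup.mk' F k) ⟨k, hk, rfl⟩
      rw [← QuotientGroup.eq_one_iff]
      change QuotientGroup.mk' F (x * k * x⁻¹ * k⁻¹) = 1
      rw [map_mul, map_mul, map_mul, ← h3, map_inv, map_inv]
      group
    apply Solv.le_pCore inferInstance
    intro x
    obtain ⟨k, m, hm, hkm⟩ := Nat.exists_eq_pow_mul_and_not_dvd (orderOf_pos (x : G)).ne' p hp.ne_one
    refine ⟨k, ?_⟩
    apply Subtype.ext
    change (x : G) ^ p ^ k = 1
    set y := (x : G) ^ p ^ k with hy
    have hyo : orderOf y = m := by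
      rw [hy, orderOf_pow_of_dvd (pow_ne_zero _ hp.ne_zero) (by rw [hkm]; exact dvd_mul_right _ _), hkm,
        Nat.mul_div_cancel_left _ (pow_pos hp.pos _)]
    have hyX : y ∈ derivedSeries G (bC p n) := pow_mem x.2 _
    obtain ⟨j, hj⟩ := IsPGroup.iff_card.1 (hPp.to_subgroup (frattini P))
    have hcop : m.Coprime p := Nat.Coprime.symm ((Nat.Prime.coprime_iff_not_dvd hp).2 hm)
    have h4 : zpowers y ≤ centralizer (P : Set G) := by
      apply Cop.le_centralizer_of_frattini
      · rw [normalizer_eq_top]; exact le_top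
      · rw [Nat.card_zpowers, hyo, hj]
        exact hcop.pow_right j
      · intro a ha k hk
        exact hcomm a (zpowers_le.2 hyX ha) k hk
    have h5 : y ∈ P := hCP (h4 (mem_zpowers y))
    obtain ⟨l, hl⟩ := (IsPGroup.iff_orderOf.1 hPp) ⟨y, h5⟩
    rw [Subgroup.orderOf_mk, hyo] at hl
    have h6 : m = 1 := by
      rw [hl] at hcop
      rcases Nat.eq_zero_or_pos l with rfl | h7
      · simpa using hl
      · exfalso
        have := (Nat.coprime_pow_left_iff h7 p p).1 hcop
        rw [Nat.coprime_self] at this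
        exact hp.ne_one this
    rw [h6, orderOf_eq_one_iff] at hyo
    exact hyo
  exact ds_le hX (derived_bound hp hPp (H.ra hp.pos P hPi))

/-- Alperin's theorem -/
theorem alperin [hpf : Fact p.Prime] (hG : Group.IsSolvable G) {n : ℕ} (hα : α ^ p = 1)
    (hfix : Nat.card {g : G // α g = g} = p ^ n) : derivedSeries G (bC p n + lC p n + hig p) = ⊥ := by
  have hp := hpf.out
  have H : AR G α p (p ^ n) := ⟨hα, hfix.le⟩
  set N := pPrimeCore p G with hN
  have hNc : N.Characteristic := inferInstance
  have hNi : Inv α N := Inv.of_char N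
  have hNcop : (Nat.card N).Coprime p := Solv.pPrimeCore_card_coprime p
  have HQ := H.quot hp.pos N hNi
  haveI : Group.IsSolvable G := hG
  have h1 := core_free (G := G ⧸ N) inferInstance (Solv.pPrimeCore_quotient_pPrimeCore p) HQ
  have h2 : derivedSeries G (bC p n + lC p n) ≤ N := by
    have h3 := map_derivedSeries_le_derivedSeries (QuotientGroup.mk' N) (bC p n + lC p n)
    rw [h1, le_bot_iff, Subgroup.map_eq_bot_iff, QuotientGroup.ker_mk'] at h3
    exact h3
  refine ds_le h2 ?_
  -- the coprime part
  have hfpf : ∀ x : N, ra α hp.pos H.pow N hNi x = x → x = 1 := by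
    intro x hx
    have h3 : α (x : G) = x := congrArg Subtype.val hx
    let C : Subgroup G :=
      { carrier := {g | α g = g}
        mul_mem' := by
          intro a b ha hb
          change α (a * b) = a * b
          rw [map_mul, show α a = a from ha, show α b = b from hb]
        one_mem' := map_one α
        inv_mem' := by
          intro a ha
          change α a⁻¹ = a⁻¹
          rw [map_inv, show α a = a from ha] }
    have hC : Nat.card C = p ^ n := hfix
    have h4 : (⟨(x : G), h3⟩ : C) ^ p ^ n = 1 := by rw [← hC]; exact pow_card_eq_one'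
    have h5 : (x : G) ^ p ^ n = 1 := congrArg Subtype.val h4
    have h6 : x ^ p ^ n = 1 := Subtype.ext h5
    have h7 : orderOf x ∣ p ^ n := orderOf_dvd_of_pow_eq_one h6
    have h8 : orderOf x ∣ Nat.card N := orderOf_dvd_natCard x
    have h9 : (Nat.card N).Coprime (p ^ n) := hNcop.pow_right n
    have h10 : orderOf x = 1 := Nat.eq_one_of_dvd_coprimes h9 h8 h7
    exact orderOf_eq_one_iff.1 h10
  by_cases hN1 : Nontrivial N
  · have HN := H.ra hp.pos N hNi
    have ho : orderOf (ra α hp.pos H.pow N hNi) = p := by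
      apply orderOf_eq_prime HN.pow
      intro h
      obtain ⟨x, hx⟩ := exists_ne (1 : N)
      apply hx
      apply hfpf
      rw [h]; rfl
    have h3 := (S3779.result hp _ ho hfpf).2.2
    rw [eq_bot_iff, ← h3]
    exact Subgroup.derived_le_lower_central _
  · rw [not_nontrivial_iff_subsingleton] at hN1
    exact Subsingleton.elim _ _

end Cfsg.Agent.AL
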