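import Cfsg.Agent.HKK.Ext

set_option autoImplicit false
set_option linter.unusedVariables false
set_option linter.style.haveILetI false

/-!
Higman-Kreknin-Kostrikin for Lie rings with an automorphism of prime order `p` whose norm is killed by `q`.
-/

namespace Cfsg.Agent.AL

open Cfsg.Agent.HKK
open scoped TensorProduct NumberField

section ext

variable {L : Type*} [LieRing L] {A : Type*} [CommRing A]
variable {p : ℕ} [hp : Fact p.Prime]

lemma psi_pow (φ : L →+ L) (hφp : ∀ x, φ^[p] x = x) (y : A ⊗[ℤ] L) : (psi A φ)^[p] y = y := by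
  induction y using TensorProduct.induction_on with
  | zero => exact iterate_map_zero _ _
  | add a b ha hb => rw [iterate_map_add, ha, hb]
  | tmul a x => rw [psi_iter_tmul, hφp]

lemma psi_norm (φ : L →+ L) {q : ℕ} (hN : ∀ x, q • ∑ s ∈ Finset.range p, φ^[s] x = 0) (y : A ⊗[ℤ] L) :
    q • ∑ s ∈ Finset.range p, (psi A φ)^[s] y = 0 := by
  induction y using TensorProduct.induction_on with
  | zero =>
    rw [Finset.sum_eq_zero, smul_zero]
    intro s _
    exact iterate_map_zero _ _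
  | add a b ha hb =>
    have : ∀ s, (psi A φ)^[s] (a + b) = (psi A φ)^[s] a + (psi A φ)^[s] b := fun s => iterate_map_add _ _ _ _
    simp only [this, Finset.sum_add_distrib, smul_add, ha, hb, add_zero]
  | tmul a x =>
    simp only [psi_iter_tmul]
    rw [← TensorProduct.tmul_sum, ← TensorProduct.tmul_smul, hN, TensorProduct.tmul_zero]

lemma proj_mem {φ : L →+ L} {ζ : A} (hζ : ζ ^ p = 1) (hφp : ∀ x, φ^[p] x = x) (i : ZMod p) (y : A ⊗[ℤ] L) :
    proj φ ζ p i.val y ∈ eig φ ζ i := by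
  rw [mem_eig]
  unfold proj
  set ξ := ζ ^ (p - 1) with hξ
  have h1 : ζ * ξ = 1 := by
    rw [hξ, ← pow_succ', Nat.sub_add_cancel hp.out.one_le, hζ]
  have h2 : ζ ^ i.val * ξ ^ i.val = 1 := by rw [← mul_pow, h1, one_pow]
  rw [map_sum]
  set f : ℕ → A ⊗[ℤ] L := fun s => (ξ ^ i.val) ^ s • (psi A φ)^[s] y with hf
  have h3 : ∀ s, psi A φ ((ξ ^ i.val) ^ s • (psi A φ)^[s] y) = ζ ^ i.val • f (s + 1) := by
    intro s
    rw [map_smul, hf]
    simp only
    rw [smul_smul, pow_succ, mul_comm ((ξ ^ i.val) ^ s), ← mul_assoc, h2, one_mul, Function.iterate_succ_apply']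
  have h4 : f p = f 0 := by
    rw [hf]
    simp only [pow_zero, one_smul, Function.iterate_zero, id]
    have h8 : ξ ^ p = 1 := by rw [hξ, ← pow_mul, mul_comm, pow_mul, hζ, one_pow]
    rw [psi_pow φ hφp, ← pow_mul, mul_comm, pow_mul, h8, one_pow, one_smul]
  have h5 : ∑ s ∈ Finset.range p, f (s + 1) = ∑ s ∈ Finset.range p, f s := by
    have h6 := Finset.sum_range_succ f p
    have h7 := Finset.sum_range_succ' f p
    rw [h6, h4] at h7
    exact (add_right_cancel h7).symm
  simp only [h3]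
  rw [← Finset.smul_sum, h5]

lemma eig_top [IsDomain A] {φ : L →+ L} {ζ : A} (hζ : IsPrimitiveRoot ζ p) (hφp : ∀ x, φ^[p] x = x)
    (y : A ⊗[ℤ] L) : p • y ∈ ⨆ i : ZMod p, eig φ ζ i := by
  rw [← sum_proj hζ]
  apply AddSubgroup.sum_mem
  intro i hi
  have := proj_mem hζ.pow_eq_one hφp (i : ZMod p) y
  rw [ZMod.val_cast_of_lt (Finset.mem_range.1 hi)] at this
  exact AddSubgroup.mem_iSup_of_mem _ this

/-- the ideal killed by `n` -/
def tor (A L : Type*) [LieRing L] [CommRing A] (n : ℕ) : LieIdeal A (A ⊗[ℤ] L) where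
  carrier := {x | n • x = 0}
  add_mem' {a b} ha hb := by
    change n • (a + b) = 0
    rw [smul_add, show n • a = 0 from ha, show n • b = 0 from hb, add_zero]
  zero_mem' := smul_zero _
  smul_mem' c x hx := by
    change n • (c • x) = 0
    rw [smul_comm, show n • x = 0 from hx, smul_zero]
  lie_mem {x m} hm := by
    change n • ⁅x, m⁆ = 0
    have h1 := map_nsmul (AddMonoidHom.mk' (fun y : A ⊗[ℤ] L => ⁅x, y⁆) (fun a b => lie_add x a b)) n m
    have h2 : ⁅x, n • m⁆ = n • ⁅x, m⁆ := h1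
    rw [← h2, show n • m = 0 from hm]
    exact tl_zero x

lemma mem_tor {n : ℕ} {x : A ⊗[ℤ] L} : x ∈ tor A L n ↔ n • x = 0 := Iff.rfl

end ext

lemma Lc_map {M N : Type*} [LieRing M] [LieRing N] (f : M →+ N) (hf : ∀ x y, f ⁅x, y⁆ = ⁅f x, f y⁆) {n : ℕ} {x : M}
    (hx : x ∈ Lc M n) : f x ∈ Lc N n := by
  induction n generalizing x with
  | zero => exact AddSubgroup.mem_top _
  | succ n ih =>
    change x ∈ AddSubgroup.closure _ at hx
    change _ ∈ AddSubgroup.closure _
    induction hx using AddSubgroup.closure_induction with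
    | mem z hz =>
      obtain ⟨a, b, ha, rfl⟩ := hz
      apply AddSubgroup.subset_closure
      exact ⟨f a, f b, ih ha, (hf a b).symm⟩
    | zero => rw [map_zero]; exact AddSubgroup.zero_mem _
    | add a b _ _ h1 h2 => rw [map_add]; exact AddSubgroup.add_mem _ h1 h2
    | neg a _ h => rw [map_neg]; exact AddSubgroup.neg_mem _ h

lemma Lc_le' {M : Type*} [LieRing M] {p : ℕ} {A : ZMod p → AddSubgroup M} (hA : ∀ x : M, p • x ∈ ⨆ i, A i) (n : ℕ) :
    ∀ x ∈ Lc M n, p ^ (n + 1) • x ∈ ⨆ i, lcs A A n i := by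
  induction n with
  | zero => intro x _; rw [zero_add, pow_one]; exact hA x
  | succ n ih =>
    intro x hx
    change x ∈ AddSubgroup.closure _ at hx
    induction hx using AddSubgroup.closure_induction with
    | mem z hz =>
      obtain ⟨x, y, hx, rfl⟩ := hz
      have hx' := ih x hx
      have hy := hA y
      have e : p ^ (n + 1 + 1) • ⁅x, y⁆ = ⁅p ^ (n + 1) • x, p • y⁆ := by
        rw [nsmul_lie, lie_nsmul, smul_smul, pow_succ p (n + 1)]
      rw [e]
      generalize p ^ (n + 1) • x = x' at *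
      generalize p • y = y' at *
      clear e hx
      induction hx' using AddSubgroup.iSup_induction' with
      | hp i x hx =>
        induction hy using AddSubgroup.iSup_induction' with
        | hp j y hy => exact AddSubgroup.mem_iSup_of_mem (i + j) (lie_mem_fb hx hy)
        | h1 => rw [lie_zero]; exact AddSubgroup.zero_mem _
        | hadd a b _ _ h1 h2 => rw [lie_add]; exact AddSubgroup.add_mem _ h1 h2
      | h1 => rw [zero_lie]; exact AddSubgroup.zero_mem _
      | hadd a b _ _ h1 h2 => rw [add_lie]; exact AddSubgroup.add_mem _ h1 h2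
    | zero => rw [smul_zero]; exact AddSubgroup.zero_mem _
    | add a b _ _ h1 h2 => rw [smul_add]; exact AddSubgroup.add_mem _ h1 h2
    | neg a _ h => rw [smul_neg]; exact AddSubgroup.neg_mem _ h

/-- Higman's function -/
def hig (p : ℕ) : ℕ := ∑ j ∈ Finset.range (2 ^ (p - 1) - 1), (p - 1) ^ j

/-- Higman-Kreknin-Kostrikin for Lie rings, almost fixed point free form -/
theorem hkk_almost {L : Type*} [LieRing L] {p : ℕ} [hp : Fact p.Prime] (φ : L →+ L)
    (hφ : ∀ x y, φ ⁅x, y⁆ = ⁅φ x, φ y⁆) (hφp : ∀ x, φ^[p] x = x) {q : ℕ}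
    (hN : ∀ x, q • ∑ s ∈ Finset.range p, φ^[s] x = 0) :
    ∀ x ∈ Lc L (hig p), (q * p * p ^ (hig p + 1)) • x = 0 := by
  have : NeZero p := ⟨hp.out.ne_zero⟩
  have : NeZero ((p : ℕ) : ℚ) := ⟨Nat.cast_ne_zero.2 hp.out.ne_zero⟩
  have hcy : IsCyclotomicExtension {p} ℚ (CyclotomicField p ℚ) := CyclotomicField.isCyclotomicExtension p ℚ
  let A := 𝓞 (CyclotomicField p ℚ)
  have hζ' := IsCyclotomicExtension.zeta_spec p ℚ (CyclotomicField p ℚ)
  have hζ := hζ'.toInteger_isPrimitiveRoot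
  set ζ : A := hζ'.toInteger
  have hinj : Function.Injective (TensorProduct.mk ℤ A L 1) := Module.FaithfullyFlat.tensorProduct_mk_injective L
  let K : LieIdeal A (A ⊗[ℤ] L) := tor A L (q * p)
  let Q := (A ⊗[ℤ] L) ⧸ K
  let π : (A ⊗[ℤ] L) →+ Q := (LieSubmodule.Quotient.mk' K).toLinearMap.toAddMonoidHom
  have hπ : ∀ x y, π ⁅x, y⁆ = ⁅π x, π y⁆ := fun x y => rfl
  have hπs : Function.Surjective π := LieSubmodule.Quotient.surjective_mk' K
  have hπ0 : ∀ x, π x = 0 ↔ (q * p) • x = 0 := fun x => by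
    have : π x = 0 ↔ x ∈ K := LieSubmodule.Quotient.mk_eq_zero' (N := K) (m := x)
    rw [this]; exact mem_tor
  let B : ZMod p → AddSubgroup Q := fun i => (eig (p := p) φ ζ i).map π
  have hG : Gr B := by
    constructor
    · rintro i j _ _ ⟨x, hx, rfl⟩ ⟨y, hy, rfl⟩
      rw [← hπ]
      refine ⟨⁅x, y⁆, ?_, rfl⟩
      change ⁅x, y⁆ ∈ eig φ ζ (i + j)
      replace hx : x ∈ eig φ ζ i := hx
      replace hy : y ∈ eig φ ζ j := hy
      rw [mem_eig] at *
      rw [psi_lie φ hφ, hx, hy, tl_smul, ← pow_add, ZMod.val_add, ← pow_eq_pow_mod _ hζ.pow_eq_one]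
    · rw [eq_bot_iff]
      rintro _ ⟨x, hx, rfl⟩
      replace hx : x ∈ eig φ ζ 0 := hx
      rw [mem_eig, ZMod.val_zero, pow_zero, one_smul] at hx
      rw [AddSubgroup.mem_bot, hπ0]
      have h1 := psi_norm (A := A) (p := p) φ hN x
      have h2 : ∀ s, (psi A φ)^[s] x = x := fun s => Function.iterate_fixed hx s
      simp only [h2, Finset.sum_const, Finset.card_range] at h1
      rw [mul_smul]; exact h1
  have hT : ∀ y : Q, p • y ∈ ⨆ i, B i := by
    intro y
    obtain ⟨x, rfl⟩ := hπs y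
    have h1 := eig_top (p := p) (A := A) hζ hφp x
    have h2 : ((⨆ i, eig (p := p) φ ζ i : AddSubgroup (A ⊗[ℤ] L))).map π = ⨆ i, B i := AddSubgroup.map_iSup π _
    rw [← h2, ← map_nsmul]
    exact ⟨_, h1, rfl⟩
  intro x hx
  have h1 : π (1 ⊗ₜ x) ∈ Lc Q (hig p) := Lc_map π hπ (Lc_tmul (A := A) hx)
  have h2 := Lc_le' hT (hig p) _ h1
  have h3 : ⨆ i, lcs B B (hig p) i = ⊥ := by
    rw [iSup_eq_bot]; exact hkk hG
  rw [h3, AddSubgroup.mem_bot, ← map_nsmul, hπ0, smul_smul] at h2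
  apply hinj
  rw [map_zero]
  have : (TensorProduct.mk ℤ A L 1) ((q * p * p ^ (hig p + 1)) • x) = (q * p * p ^ (hig p + 1)) • ((1 : A) ⊗ₜ[ℤ] x) := by
    rw [map_nsmul]; rfl
  rw [this]; exact h2

end Cfsg.Agent.AL
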