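import Cfsg.Agent.AL.PG
import Cfsg.Agent.AL.Lie
import Cfsg.Agent.HKK.Aut
import Cfsg.Agent.S4206

set_option autoImplicit false
set_option linter.unusedVariables false
set_option linter.style.haveILetI false

/-!
`p`-groups with an automorphism of order `p` with `p^n` fixed points have bounded derived length.
-/

namespace Cfsg.Agent.AL

open Subgroup Cfsg.Agent.HKK
open scoped commutatorElement

variable {G : Type*} [Group G] [Finite G] {α : MulAut G} {p : ℕ}

/-- the lower central series -/
abbrev LC (G : Type*) [Group G] : ℕ → Subgroup G := fun n => (⊤ : Subgroup G).lowerCentralSeries n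

lemma NS_lcs : NS (LC G) where
  normal := fun i => inferInstance
  anti := fun i => Subgroup.lowerCentralSeries_antitone _ (Nat.le_succ i)
  comm := fun i j => Cfsg.Agent.S4206.result (fun i => (⊤ : Subgroup G).lowerCentralSeries i) (fun i => inferInstance)
        (fun i => Subgroup.lowerCentralSeries_antitone _ (Nat.le_succ i)) ⊤ (fun i => le_rfl) i j

instance factNS : Fact (NS (LC G)) := ⟨NS_lcs⟩

/-- fixed points of a quotient have bounded exponent -/
lemma pow_of_fixed (hp : p.Prime) (hG : IsPGroup p G) {n : ℕ} (H : AR G α p (p ^ n)) {z : G} (hz : α z = z) : z ^ p ^ n = 1 := by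
  haveI := Fact.mk hp
  let C : Subgroup G :=
    { carrier := {g | α g = g}
      mul_mem' := by
        intro a b ha hb
        change α (a * b) = a * b
        rw [map_mul, show α a = a from ha, show α b = b from hb]
      one_mem' := map_one α
      inv_mem' := by
        intro a ha
        change α a⁻¹ = a⁻¹
        rw [map_inv, show α a = a from ha] }
  obtain ⟨k, hk⟩ := IsPGroup.iff_card.1 (hG.to_subgroup C)
  have h1 : Nat.card C ≤ p ^ n := H.fix
  rw [hk] at h1
  have h2 : k ≤ n := (Nat.pow_le_pow_iff_right hp.one_lt).1 h1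
  have h3 : (⟨z, hz⟩ : C) ^ p ^ k = 1 := by rw [← hk]; exact pow_card_eq_one'
  have h4 : z ^ p ^ k = 1 := congrArg Subtype.val h3
  rw [← Nat.add_sub_cancel' h2, pow_add, pow_mul, h4, one_pow]

lemma el_pow {F : ℕ → Subgroup G} [Fact (NS F)] {i : ℕ} (x : F i) (n : ℕ) : el i (x ^ n) = n • el i x := by
  induction n with
  | zero => rw [pow_zero, zero_smul]; exact el_one
  | succ n ih => rw [pow_succ, el_mul, ih, succ_nsmul]

lemma el_mem_Lc (n : ℕ) (x : LC G n) : el n x ∈ Lc (LR (LC G)) n := by
  induction n with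
  | zero => exact AddSubgroup.mem_top _
  | succ n ih =>
    let T : Subgroup G :=
      { carrier := {x | ∃ hx : x ∈ LC G (n + 1), el (n + 1) ⟨x, hx⟩ ∈ Lc (LR (LC G)) (n + 1)}
        mul_mem' := by
          rintro a b ⟨ha, ha'⟩ ⟨hb, hb'⟩
          refine ⟨mul_mem ha hb, ?_⟩
          have : (⟨a * b, mul_mem ha hb⟩ : LC G (n + 1)) = ⟨a, ha⟩ * ⟨b, hb⟩ := rfl
          rw [this, el_mul]
          exact add_mem ha' hb'
        one_mem' := by
          refine ⟨one_mem _, ?_⟩
          have : (⟨1, one_mem _⟩ : LC G (n + 1)) = 1 := rfl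
          rw [this, el_one]; exact zero_mem _
        inv_mem' := by
          rintro a ⟨ha, ha'⟩
          refine ⟨inv_mem ha, ?_⟩
          have : (⟨a⁻¹, inv_mem ha⟩ : LC G (n + 1)) = ⟨a, ha⟩⁻¹ := rfl
          rw [this, el_inv]
          exact neg_mem ha' }
    have hT : LC G (n + 1) ≤ T := by
      show ⁅LC G n, (⊤ : Subgroup G)⁆ ≤ T
      rw [commutator_le]
      intro g hg x hx
      refine ⟨commutator_mem_commutator hg hx, ?_⟩
      have h1 := brL_el (F := LC G) n 0 (n + 1) rfl ⟨g, hg⟩ ⟨x, hx⟩
      apply AddSubgroup.subset_closure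
      exact ⟨el n ⟨g, hg⟩, el 0 ⟨x, hx⟩, ih ⟨g, hg⟩, h1⟩
    obtain ⟨hc, h2⟩ := hT x.2
    exact h2

/-- Higman's theorem, almost fixed point free form -/
theorem lcs_pow (hp : p.Prime) (hG : IsPGroup p G) {n : ℕ} (H : AR G α p (p ^ n)) (x : G) (hx : x ∈ LC G (hig p)) :
    x ^ p ^ (n + 1 + (hig p + 1)) ∈ LC G (hig p + 1) := by
  haveI := Fact.mk hp
  have hinv : ∀ i x, x ∈ LC G i → α.toMonoidHom x ∈ LC G i := fun i x hx => Inv.of_char (α := α) (LC G i) x hx
  set φ := phi (F := LC G) α.toMonoidHom hinv with hφ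
  have hφel : ∀ i (x : LC G i), φ (el i x) = el i ⟨α x, hinv i x x.2⟩ := fun i x => phi_el _ _ i x
  have hit : ∀ (s i : ℕ) (x : LC G i), ∃ y : LC G i, (y : G) = (α ^ s) x ∧ φ^[s] (el i x) = el i y := by
    intro s
    induction s with
    | zero => intro i x; exact ⟨x, rfl, rfl⟩
    | succ s ih =>
      intro i x
      obtain ⟨y, hy, hy'⟩ := ih i ⟨α x, hinv i x x.2⟩
      refine ⟨y, ?_, ?_⟩
      · rw [hy, pow_succ]; rfl
      · rw [Function.iterate_succ_apply, hφel, hy']
  have hφp : ∀ x, φ^[p] x = x := by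
    intro x
    induction x using el_ind with
    | h0 => exact iterate_map_zero _ _
    | hadd a b ha hb => rw [iterate_map_add, ha, hb]
    | hof i x =>
      obtain ⟨y, hy, hy'⟩ := hit p i x
      rw [hy']
      congr 1
      apply Subtype.ext
      rw [hy, H.pow]; rfl
  have hN : ∀ x, p ^ n • ∑ s ∈ Finset.range p, φ^[s] x = 0 := by
    intro x
    induction x using el_ind with
    | h0 =>
      have : ∑ s ∈ Finset.range p, φ^[s] (0 : LR (LC G)) = 0 := Finset.sum_eq_zero fun s _ => iterate_map_zero _ _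
      rw [this, smul_zero]
    | hadd a b ha hb =>
      have : ∀ s, φ^[s] (a + b) = φ^[s] a + φ^[s] b := fun s => iterate_map_add _ _ _ _
      simp only [this, Finset.sum_add_distrib, smul_add, ha, hb, add_zero]
    | hof i x =>
      have h1 : ∑ s ∈ Finset.range p, φ^[s] (el i x) ∈ (ofV (F := LC G) i).range := by
        apply AddSubgroup.sum_mem
        intro s _
        obtain ⟨y, hy, hy'⟩ := hit s i x
        rw [hy']
        exact ⟨mkv i y, rfl⟩
      obtain ⟨v, hv⟩ := h1
      obtain ⟨y, rfl⟩ := mkv_surj v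
      have h2 : φ (∑ s ∈ Finset.range p, φ^[s] (el i x)) = ∑ s ∈ Finset.range p, φ^[s] (el i x) := by
        rw [map_sum]
        have h3 : ∀ s, φ (φ^[s] (el i x)) = φ^[s + 1] (el i x) := fun s => (Function.iterate_succ_apply' _ _ _).symm
        simp only [h3]
        have h4 := Finset.sum_range_succ (fun s => φ^[s] (el i x)) p
        have h5 := Finset.sum_range_succ' (fun s => φ^[s] (el i x)) p
        rw [h5, hφp] at h4
        exact add_right_cancel h4
      rw [← hv] at h2 ⊢
      change φ (el i y) = el i y at h2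
      change p ^ n • el i y = 0
      rw [hφel, eq_comm, el_eq] at h2
      rw [← el_pow, el_eq_zero]
      have hFi : Inv α (LC G (i + 1)) := Inv.of_char _
      have HQ := H.quot hp.pos (LC G (i + 1)) hFi
      have h6 := pow_of_fixed hp (hG.to_quotient _) HQ (z := ((y : G) : G ⧸ LC G (i + 1))) (by
        rw [qa_mk, eq_comm, QuotientGroup.eq]
        exact h2)
      rw [← QuotientGroup.mk_pow, QuotientGroup.eq_one_iff] at h6
      exact h6
  have h7 := hkk_almost φ (phi_lie _ _) hφp hN (el (hig p) ⟨x, hx⟩) (el_mem_Lc (hig p) ⟨x, hx⟩)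
  rw [← el_pow, el_eq_zero] at h7
  have e : p ^ (n + 1 + (hig p + 1)) = p ^ n * p * p ^ (hig p + 1) := by rw [pow_add, pow_succ]
  rw [e]
  exact h7

/-- the same in an invariant subgroup -/
theorem lcs_pow_sub (hp : p.Prime) (hG : IsPGroup p G) {n : ℕ} (H : AR G α p (p ^ n)) {D : Subgroup G} (hD : Inv α D) (x : G)
    (hx : x ∈ D.lowerCentralSeries (hig p)) : x ^ p ^ (n + 1 + (hig p + 1)) ∈ D.lowerCentralSeries (hig p + 1) := by
  let β : MulAut D :=
    { toFun := fun x => ⟨α x, hD x x.2⟩
      invFun := fun x => ⟨α⁻¹ (x : G), hD.inv hp.pos H.pow x x.2⟩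
      left_inv := fun x => Subtype.ext (MulAut.inv_apply_self G α (x : G))
      right_inv := fun x => Subtype.ext (MulAut.apply_inv_self G α (x : G))
      map_mul' := fun a b => Subtype.ext (map_mul α (a : G) (b : G)) }
  have hβ : ∀ (n : ℕ) (x : D), (((β ^ n) x : D) : G) = (α ^ n) (x : G) := by
    intro n
    induction n with
    | zero => intro x; rfl
    | succ n ih => intro x; rw [pow_succ, pow_succ, MulAut.mul_apply, ih]; rfl
  have HD : AR D β p (p ^ n) := by
    constructor
    · ext x
      rw [hβ, H.pow]; rfl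
    · refine le_trans ?_ (card_fix_sub H D)
      apply Nat.card_le_card_of_injective (fun x : {x : D // β x = x} => (⟨x.1, congrArg Subtype.val x.2⟩ : {x : D // α x = x}))
      intro a b hab
      have h := congrArg Subtype.val hab
      exact Subtype.ext h
  rw [← top_subtype_lowerCentralSeries] at hx ⊢
  obtain ⟨y, hy, rfl⟩ := hx
  exact ⟨y ^ p ^ (n + 1 + (hig p + 1)), lcs_pow hp (hG.to_subgroup D) HD y hy, map_pow _ _ _⟩

/-- the constants -/
def sC (p n : ℕ) : ℕ := n * (p * (n + 1 + (hig p + 1)))
def eC (p n : ℕ) : ℕ := ((p ^ n) ^ (p * (sC p n + 1))).factorial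
def lC (p n : ℕ) : ℕ := eC p n + hig p + p ^ sC p n

/-- Alperin's theorem for p-groups -/
theorem derived_bound (hp : p.Prime) (hG : IsPGroup p G) {n : ℕ} (H : AR G α p (p ^ n)) : derivedSeries G (lC p n) = ⊥ := by
  haveI := Fact.mk hp
  haveI := hG.isNilpotent
  haveI : Group.IsSolvable G := inferInstance
  set D := derivedSeries G (eC p n) with hD
  have hDi : Inv α D := Inv.of_char D
  set K := D.lowerCentralSeries (hig p) with hK
  have hKD : K ≤ D := by
    have := Subgroup.lowerCentralSeries_antitone D (Nat.zero_le (hig p))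
    exact this
  have hKn : K.Normal := inferInstance
  have hKi : Inv α K := Inv.of_char K
  have hK'n : (D.lowerCentralSeries (hig p + 1)).Normal := inferInstance
  have h1 : (D.lowerCentralSeries (hig p + 1)).relIndex K ≤ p ^ sC p n := by
    have h2 := relIndex_abelian hp H (M := K) (N := D.lowerCentralSeries (hig p + 1)) hKi (Inv.of_char _) (by
      intro x hx y hy
      exact commutator_mem_commutator hx (hKD hy)) (i := n + 1 + (hig p + 1)) (lcs_pow_sub hp hG H hDi)
    rw [← pow_mul] at h2
    exact h2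
  have h2 : D.lowerCentralSeries (hig p + 1) ≤ pw K (p ^ (sC p n + 1)) := comm_le_pw hp hG H (i := sC p n + 1) hKi hKD
  have h3 : (pw K (p ^ (sC p n + 1))).relIndex K ≤ p ^ sC p n :=
    (relIndex_le_of_le_left h2 (by
      unfold relIndex
      exact index_ne_zero_of_finite)).trans h1
  have h4 := pw_bot_of_relIndex hG (Nat.lt_succ_self _) h3
  rw [h4, relIndex_bot_left] at h3
  -- the derived series
  have h5 : ∀ j, derivedSeries G (eC p n + j) ≤ D.lowerCentralSeries j := by
    intro j
    induction j with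
    | zero => exact le_rfl
    | succ j ih =>
      change ⁅derivedSeries G (eC p n + j), derivedSeries G (eC p n + j)⁆ ≤ ⁅D.lowerCentralSeries j, D⁆
      exact commutator_mono ih (derivedSeries_antitone G (Nat.le_add_right _ _))
  have h6 : Nat.card (derivedSeries G (eC p n + hig p)) ≤ p ^ sC p n :=
    (Nat.card_mono (Set.toFinite _) (h5 (hig p))).trans h3
  exact derivedSeries_card _ _ h6

end Cfsg.Agent.AL
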