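import Cfsg.Agent.AL.Ab
import Cfsg.Agent.Solv.MinNormal
import Cfsg.Agent.Solv.Frattini

set_option autoImplicit false
set_option linter.unusedVariables false
set_option linter.style.haveILetI false

/-!
Groups with an automorphism of order `p` with few fixed points: abelian sections and their centralizers.
-/

namespace Cfsg.Agent.AL

open Subgroup
open scoped commutatorElement

/-- invariant subgroups -/
def Inv {G : Type*} [Group G] (α : MulAut G) (N : Subgroup G) : Prop := ∀ x ∈ N, α x ∈ N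

section basics

variable {G : Type*} [Group G] {α : MulAut G}

lemma Inv.of_char (N : Subgroup G) [N.Characteristic] : Inv α N := by
  intro x hx
  have h := (inferInstance : N.Characteristic).fixed α
  rw [← h] at hx
  exact hx

lemma Inv.inf {M N : Subgroup G} (hM : Inv α M) (hN : Inv α N) : Inv α (M ⊓ N) := fun x hx => ⟨hM x hx.1, hN x hx.2⟩

lemma Inv.le_comap {N : Subgroup G} (hN : Inv α N) : N ≤ N.comap α.toMonoidHom := fun x hx => hN x hx

lemma Inv.pow {N : Subgroup G} (hN : Inv α N) (n : ℕ) : ∀ x ∈ N, (α ^ n) x ∈ N := by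
  induction n with
  | zero => intro x hx; exact hx
  | succ n ih => intro x hx; rw [pow_succ]; exact ih _ (hN x hx)

lemma Inv.inv {N : Subgroup G} (hN : Inv α N) {p : ℕ} (hp : 0 < p) (hα : α ^ p = 1) : Inv α⁻¹ N := by
  intro x hx
  have : α⁻¹ = α ^ (p - 1) := by
    rw [inv_eq_iff_mul_eq_one, ← pow_succ', Nat.sub_add_cancel hp, hα]
  rw [this]
  exact hN.pow _ x hx

lemma Inv.centralizer {D : Subgroup G} {p : ℕ} (hp : 0 < p) (hα : α ^ p = 1) (hD : Inv α D) : Inv α (centralizer (D : Set G)) := by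
  intro x hx
  rw [mem_centralizer_iff] at hx ⊢
  intro d hd
  have h1 : α⁻¹ d ∈ D := hD.inv hp hα d hd
  have h2 := congrArg α (hx (α⁻¹ d) h1)
  rw [map_mul, map_mul, MulAut.apply_inv_self] at h2
  exact h2

/-- the induced automorphism of a quotient -/
noncomputable def qa (α : MulAut G) {p : ℕ} (hp : 0 < p) (hα : α ^ p = 1) (N : Subgroup G) [N.Normal] (hN : Inv α N) : MulAut (G ⧸ N) where
  toFun := QuotientGroup.map N N α.toMonoidHom hN.le_comap
  invFun := QuotientGroup.map N N (α⁻¹ : MulAut G).toMonoidHom (hN.inv hp hα).le_comap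
  left_inv := by
    intro x
    obtain ⟨g, rfl⟩ := QuotientGroup.mk_surjective x
    rw [QuotientGroup.map_mk, QuotientGroup.map_mk]
    congr 1
    exact MulAut.inv_apply_self G α g
  right_inv := by
    intro x
    obtain ⟨g, rfl⟩ := QuotientGroup.mk_surjective x
    rw [QuotientGroup.map_mk, QuotientGroup.map_mk]
    congr 1
    exact MulAut.apply_inv_self G α g
  map_mul' := map_mul _

lemma qa_mk {p : ℕ} (hp : 0 < p) (hα : α ^ p = 1) (N : Subgroup G) [N.Normal] (hN : Inv α N) (g : G) :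
    qa α hp hα N hN (g : G ⧸ N) = ((α g : G) : G ⧸ N) := rfl

lemma qa_pow {p : ℕ} (hp : 0 < p) (hα : α ^ p = 1) (N : Subgroup G) [N.Normal] (hN : Inv α N) (g : G) (n : ℕ) :
    (qa α hp hα N hN ^ n) (g : G ⧸ N) = (((α ^ n) g : G) : G ⧸ N) := by
  induction n generalizing g with
  | zero => rfl
  | succ n ih => rw [pow_succ, pow_succ, MulAut.mul_apply, qa_mk, ih]; rfl

/-- an automorphism of order dividing `p` with at most `c` fixed points -/
structure AR (G : Type*) [Group G] (α : MulAut G) (p c : ℕ) : Prop where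
  pow : α ^ p = 1
  fix : Nat.card {g : G // α g = g} ≤ c

lemma AR.quot [Finite G] {p c : ℕ} (hp : 0 < p) (H : AR G α p c) (N : Subgroup G) [N.Normal] (hN : Inv α N) :
    AR (G ⧸ N) (qa α hp H.pow N hN) p c := by
  constructor
  · ext x
    obtain ⟨g, rfl⟩ := QuotientGroup.mk_surjective x
    rw [qa_pow, H.pow]; rfl
  · exact (card_fix_quotient α.toMonoidHom N hN.le_comap).trans H.fix

lemma Inv.map_mk {p : ℕ} (hp : 0 < p) (hα : α ^ p = 1) (N : Subgroup G) [N.Normal] (hN : Inv α N) {M : Subgroup G} (hM : Inv α M) :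
    Inv (qa α hp hα N hN) (M.map (QuotientGroup.mk' N)) := by
  rintro _ ⟨x, hx, rfl⟩
  exact ⟨α x, hM x hx, rfl⟩

lemma Inv.comap_mk {p : ℕ} (hp : 0 < p) (hα : α ^ p = 1) (N : Subgroup G) [N.Normal] (hN : Inv α N) {M : Subgroup (G ⧸ N)}
    (hM : Inv (qa α hp hα N hN) M) : Inv α (M.comap (QuotientGroup.mk' N)) := by
  intro x hx
  rw [mem_comap] at hx ⊢
  exact hM _ hx

lemma Inv.closure {S : Set G} (hS : ∀ x ∈ S, α x ∈ S) : Inv α (Subgroup.closure S) := by
  intro x hx
  induction hx using Subgroup.closure_induction with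
  | mem x hx => exact Subgroup.subset_closure (hS x hx)
  | one => rw [map_one]; exact one_mem _
  | mul a b _ _ ha hb => rw [map_mul]; exact mul_mem ha hb
  | inv a _ ha => rw [map_inv]; exact inv_mem ha

end basics

variable {G : Type*} [Group G] [Finite G] {α : MulAut G} {p : ℕ}

/-- abelian invariant subgroups are small -/
theorem card_abelian (hp : p.Prime) (hα : α ^ p = 1) {M : Subgroup G} (hM : Inv α M) (hab : ∀ x ∈ M, ∀ y ∈ M, x * y = y * x)
    {i : ℕ} (hexp : ∀ x ∈ M, x ^ p ^ i = 1) {c : ℕ} (hc : Nat.card {x : M // α x = x} ≤ c) : Nat.card M ≤ c ^ (p * i) := by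
  letI : CommGroup M := { (inferInstance : Group M) with
    mul_comm := fun a b => Subtype.ext (hab a a.2 b b.2) }
  let f : M →* M := MonoidHom.mk' (fun x => ⟨α x, hM x x.2⟩) (fun a b => Subtype.ext (map_mul α (a : G) (b : G)))
  let X := Additive M
  let g : X →+ X := MonoidHom.toAdditive f
  have hg : ∀ (n : ℕ) (x : X), ((Additive.toMul (g^[n] x) : M) : G) = (α ^ n) ((Additive.toMul x : M) : G) := by
    intro n
    induction n with
    | zero => intro x; rfl
    | succ n ih =>
      intro x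
      rw [Function.iterate_succ_apply, ih, pow_succ]
      rfl
  have h1 := card_le_fix (X := X) hp g (by
    intro x
    have h2 := hg p x
    rw [hα] at h2
    exact congrArg Additive.ofMul (Subtype.ext h2)) (i := i) (by
    intro x
    have h2 : (Additive.toMul x : M) ^ p ^ i = 1 := Subtype.ext (hexp _ (Additive.toMul x : M).2)
    exact congrArg Additive.ofMul h2) (c := c) (by
    refine le_trans ?_ hc
    apply Nat.card_le_card_of_injective (fun x : {x : X // g x = x} => (⟨Additive.toMul x.1, congrArg (fun z : X => ((Additive.toMul z : M) : G)) x.2⟩ : {x : M // α x = x}))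
    intro a b hab
    have h := congrArg Subtype.val hab
    exact Subtype.ext h)
  exact h1

lemma card_fix_sub {c : ℕ} (H : AR G α p c) (M : Subgroup G) : Nat.card {x : M // α x = x} ≤ c := by
  refine le_trans ?_ H.fix
  apply Nat.card_le_card_of_injective (fun x : {x : M // α x = x} => (⟨((x : M) : G), x.2⟩ : {g : G // α g = g}))
  intro a b hab
  have h := congrArg Subtype.val hab
  exact Subtype.ext (Subtype.ext h)

/-- abelian invariant sections are small -/
theorem relIndex_abelian (hp : p.Prime) {c : ℕ} (H : AR G α p c) {M N : Subgroup G} [N.Normal] (hM : Inv α M) (hN : Inv α N)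
    (hab : ∀ x ∈ M, ∀ y ∈ M, ⁅x, y⁆ ∈ N) {i : ℕ} (hexp : ∀ x ∈ M, x ^ p ^ i ∈ N) : N.relIndex M ≤ c ^ (p * i) := by
  have HQ := H.quot hp.pos N hN
  have h1 := card_abelian hp HQ.pow (Inv.map_mk hp.pos H.pow N hN hM) (by
    rintro _ ⟨x, hx, rfl⟩ _ ⟨y, hy, rfl⟩
    rw [← commutatorElement_eq_one_iff_mul_comm, ← map_commutatorElement]
    exact (QuotientGroup.eq_one_iff _).2 (hab x hx y hy)) (i := i) (by
    rintro _ ⟨x, hx, rfl⟩
    rw [← map_pow]
    exact (QuotientGroup.eq_one_iff _).2 (hexp x hx)) (card_fix_sub HQ _)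
  have h2 := Subgroup.relIndex_ker M (QuotientGroup.mk' N)
  rw [QuotientGroup.ker_mk'] at h2
  rw [h2]; exact h1

omit [Finite G] in
lemma derivedSeries_bot_mono {a b : ℕ} (h : derivedSeries G a = ⊥) (hab : a ≤ b) : derivedSeries G b = ⊥ := by
  rw [eq_bot_iff, ← h]; exact derivedSeries_antitone G hab

/-- derived length of small groups -/
theorem derivedSeries_card [Group.IsSolvable G] (c : ℕ) : ∀ k, Nat.card (derivedSeries G k) ≤ c → derivedSeries G (k + c) = ⊥ := by
  induction c with
  | zero =>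
    intro k h
    have : 0 < Nat.card (derivedSeries G k) := Nat.card_pos
    omega
  | succ c ih =>
    intro k h
    by_cases hb : derivedSeries G k = ⊥
    · exact derivedSeries_bot_mono hb (by omega)
    · have h1 : derivedSeries G (k + 1) < derivedSeries G k := Group.IsSolvable.commutator_lt_of_ne_bot hb
      have h2 : Nat.card (derivedSeries G (k + 1)) < Nat.card (derivedSeries G k) := by
        have : ((derivedSeries G (k + 1) : Subgroup G) : Set G) ⊂ (derivedSeries G k : Set G) := h1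
        exact Set.ncard_lt_ncard this (Set.toFinite _)
      have h3 := ih (k + 1) (by omega)
      have e : k + 1 + c = k + (c + 1) := by omega
      rwa [e] at h3

theorem derivedSeries_of_card [Group.IsSolvable G] {c : ℕ} (h : Nat.card G ≤ c) : derivedSeries G c = ⊥ := by
  have := derivedSeries_card (G := G) c 0 ((Subgroup.card_le_card_group _).trans h)
  rwa [zero_add] at this

/-- homomorphisms into small groups -/
theorem derivedSeries_le_ker [Group.IsSolvable G] {H : Type*} [Group H] [Finite H] (f : G →* H) {c : ℕ} (h : Nat.card H ≤ c) :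
    derivedSeries G c ≤ f.ker := by
  haveI : Group.IsSolvable f.range := Group.isSolvable_of_surjective f.rangeRestrict_surjective
  have h1 : derivedSeries f.range c = ⊥ := derivedSeries_of_card ((Subgroup.card_le_card_group _).trans h)
  have h2 := map_derivedSeries_le_derivedSeries f.rangeRestrict c
  rw [h1, le_bot_iff, Subgroup.map_eq_bot_iff] at h2
  rwa [MonoidHom.ker_rangeRestrict] at h2

lemma card_mulAut_le (X : Type*) [Group X] [Finite X] : Nat.card (MulAut X) ≤ (Nat.card X).factorial := by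
  classical
  have := Fintype.ofFinite X
  have h1 : Nat.card (MulAut X) ≤ Nat.card (Equiv.Perm X) := by
    apply Nat.card_le_card_of_injective (fun f : MulAut X => (f.toEquiv : Equiv.Perm X))
    intro a b h
    exact MulEquiv.toEquiv_injective h
  rwa [Nat.card_perm] at h1

/-- a high term of the derived series centralizes the abelian sections -/
theorem derivedSeries_centralizes [Group.IsSolvable G] (hp : p.Prime) {c : ℕ} (H : AR G α p c) {M : Subgroup G} [hMn : M.Normal] (hM : Inv α M)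
    (hab : ∀ x ∈ M, ∀ y ∈ M, x * y = y * x) {i : ℕ} (hexp : ∀ x ∈ M, x ^ p ^ i = 1) :
    derivedSeries G ((c ^ (p * i)).factorial) ≤ centralizer (M : Set G) := by
  have h1 := card_abelian hp H.pow hM hab hexp (card_fix_sub H M)
  have h2 := derivedSeries_le_ker (MulAut.conjNormal (H := M)) (c := (c ^ (p * i)).factorial)
    ((card_mulAut_le M).trans (Nat.factorial_le h1))
  refine h2.trans ?_
  intro g hg
  rw [MonoidHom.mem_ker] at hg
  rw [mem_centralizer_iff]
  intro x hx
  have h3 : MulAut.conjNormal g (⟨x, hx⟩ : M) = ⟨x, hx⟩ := by rw [hg]; rfl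
  have h4 : g * x * g⁻¹ = x := by
    have := congrArg Subtype.val h3
    rwa [MulAut.conjNormal_apply] at this
  rw [mul_inv_eq_iff_eq_mul] at h4
  exact h4.symm

/-- central fixed elements -/
theorem exists_central_fixed (hp : p.Prime) (hG : IsPGroup p G) (hα : α ^ p = 1) {N : Subgroup G} [N.Normal] (hN : Inv α N) (hne : N ≠ ⊥) :
    ∃ z ∈ N, z ≠ 1 ∧ z ∈ center G ∧ α z = z := by
  haveI := Fact.mk hp
  haveI := hG.isNilpotent
  have h1 := Solv.inf_center_ne_bot_of_nilpotent N hne
  by_contra hcon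
  push Not at hcon
  apply h1
  obtain ⟨k, hk⟩ := IsPGroup.iff_card.1 hG
  have h2 := card_abelian hp hα (hN.inf (Inv.of_char (center G))) (fun x hx y hy => (mem_center_iff.1 hx.2 y).symm) (i := k)
    (by
      intro x _
      rw [← hk]; exact pow_card_eq_one') (c := 1) (by
      rw [Finite.card_le_one_iff_subsingleton]
      have : ∀ x : {x : (N ⊓ center G : Subgroup G) // α x = x}, (((x : (N ⊓ center G : Subgroup G))) : G) = 1 := by
        intro x
        by_contra hx
        exact hcon _ x.1.2.1 hx x.1.2.2 x.2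
      exact ⟨fun a b => Subtype.ext (Subtype.ext ((this a).trans (this b).symm))⟩)
  rw [one_pow] at h2
  rw [← Subgroup.card_eq_one]
  exact le_antisymm h2 Nat.card_pos

/-- the subgroup of powers -/
def pw (N : Subgroup G) (m : ℕ) : Subgroup G := closure {y | ∃ x ∈ N, x ^ m = y}

omit [Finite G] in
lemma pow_mem_pw {N : Subgroup G} {m : ℕ} {x : G} (hx : x ∈ N) : x ^ m ∈ pw N m := subset_closure ⟨x, hx, rfl⟩

omit [Finite G] in
lemma pw_le {N K : Subgroup G} {m : ℕ} (h : ∀ x ∈ N, x ^ m ∈ K) : pw N m ≤ K := by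
  unfold pw
  rw [closure_le]
  rintro _ ⟨x, hx, rfl⟩
  exact h x hx

omit [Finite G] in
lemma pw_inv {N : Subgroup G} (hN : Inv α N) (m : ℕ) : Inv α (pw N m) := by
  apply Inv.closure
  rintro _ ⟨x, hx, rfl⟩
  exact ⟨α x, hN x hx, (map_pow α x m).symm⟩

omit [Finite G] in
instance pw_normal {N : Subgroup G} [hN : N.Normal] (m : ℕ) : (pw N m).Normal := by
  constructor
  intro x hx g
  unfold pw at hx
  induction hx using Subgroup.closure_induction with
  | mem x hx =>
    obtain ⟨y, hy, rfl⟩ := hx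
    rw [← conj_pow]
    exact pow_mem_pw (hN.conj_mem y hy g)
  | one => rw [mul_one, mul_inv_cancel]; exact one_mem _
  | mul a b _ _ ha hb =>
    have e : g * (a * b) * g⁻¹ = (g * a * g⁻¹) * (g * b * g⁻¹) := by group
    rw [e]; exact mul_mem ha hb
  | inv a _ ha =>
    have e : g * a⁻¹ * g⁻¹ = (g * a * g⁻¹)⁻¹ := by group
    rw [e]; exact inv_mem ha

/-- the key fact, exponent case -/
theorem comm_bot (hp : p.Prime) (hG : IsPGroup p G) {c : ℕ} (H : AR G α p c) {i : ℕ} {N : Subgroup G} [N.Normal] (hN : Inv α N)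
    (hND : N ≤ derivedSeries G ((c ^ (p * i)).factorial)) (hexp : ∀ x ∈ N, x ^ p ^ i = 1) :
    N ≤ centralizer (derivedSeries G ((c ^ (p * i)).factorial) : Set G) := by
  haveI := Fact.mk hp
  haveI := hG.isNilpotent
  haveI : Group.IsSolvable G := inferInstance
  set D := derivedSeries G ((c ^ (p * i)).factorial) with hD
  by_contra hcon
  let Z : Subgroup G := N ⊓ centralizer (D : Set G)
  have hZn : Z.Normal := inferInstance
  have hDi : Inv α D := Inv.of_char D
  have hZi : Inv α Z := hN.inf (Inv.centralizer hp.pos H.pow hDi)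
  have HQ := H.quot hp.pos Z hZi
  have hGQ : IsPGroup p (G ⧸ Z) := hG.to_quotient Z
  have hne : N.map (QuotientGroup.mk' Z) ≠ ⊥ := by
    intro h
    rw [Subgroup.map_eq_bot_iff, QuotientGroup.ker_mk'] at h
    exact hcon (h.trans inf_le_right)
  haveI : (N.map (QuotientGroup.mk' Z)).Normal := Subgroup.Normal.map inferInstance _ (QuotientGroup.mk'_surjective Z)
  obtain ⟨z, ⟨x, hxN, hxz⟩, hz1, hzc, hzα⟩ := exists_central_fixed hp hGQ HQ.pow (Inv.map_mk hp.pos H.pow Z hZi hN) hne
  let M : Subgroup G := (zpowers z).comap (QuotientGroup.mk' Z)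
  have hzn : (zpowers z).Normal := Solv.normal_of_le_center ((zpowers_le).2 hzc)
  have hMn : M.Normal := Subgroup.Normal.comap hzn _
  have hMi : Inv α M := by
    apply Inv.comap_mk hp.pos H.pow Z hZi
    intro y hy
    obtain ⟨k, rfl⟩ := mem_zpowers_iff.1 hy
    rw [map_zpow, hzα]
    exact zpow_mem (mem_zpowers z) k
  have hdec : ∀ g ∈ M, ∃ k : ℤ, ∃ u ∈ Z, g = x ^ k * u := by
    intro g hg
    rw [mem_comap] at hg
    obtain ⟨k, hk⟩ := mem_zpowers_iff.1 hg
    refine ⟨k, (x ^ k)⁻¹ * g, ?_, by group⟩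
    rw [← QuotientGroup.eq_one_iff]
    have h1 : ((x ^ k : G) : G ⧸ Z) = (g : G ⧸ Z) := by
      have : QuotientGroup.mk' Z (x ^ k) = QuotientGroup.mk' Z g := by rw [map_zpow, hxz, hk]
      exact this
    rw [QuotientGroup.mk_mul, QuotientGroup.mk_inv, h1, inv_mul_cancel]
  have hMN : M ≤ N := by
    intro g hg
    obtain ⟨k, u, hu, rfl⟩ := hdec g hg
    exact mul_mem (zpow_mem hxN k) hu.1
  have hZc : ∀ u ∈ Z, ∀ d ∈ N, d * u = u * d := fun u hu d hd => mem_centralizer_iff.1 hu.2 d (hND hd)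
  have hMab : ∀ a ∈ M, ∀ b ∈ M, a * b = b * a := by
    intro a ha b hb
    obtain ⟨k, u, hu, rfl⟩ := hdec a ha
    obtain ⟨l, v, hv, rfl⟩ := hdec b hb
    have c1 : Commute (x ^ k) (x ^ l) := (Commute.refl x).zpow_zpow k l
    have c2 : Commute (x ^ k) v := hZc v hv _ (zpow_mem hxN k)
    have c3 : Commute u (x ^ l) := (hZc u hu _ (zpow_mem hxN l)).symm
    have c4 : Commute u v := hZc v hv _ hu.1
    exact ((c1.mul_right c2).mul_left (c3.mul_right c4))
  have h1 := derivedSeries_centralizes hp H hMi hMab (fun y hy => hexp y (hMN hy))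
  have hxM : x ∈ M := by
    rw [mem_comap, hxz]; exact mem_zpowers z
  have hxC : x ∈ centralizer (D : Set G) := by
    rw [mem_centralizer_iff]
    intro d hd
    exact (mem_centralizer_iff.1 (h1 hd) x hxM).symm
  have hxZ : x ∈ Z := ⟨hxN, hxC⟩
  apply hz1
  rw [← hxz]
  exact (QuotientGroup.eq_one_iff x).2 hxZ

/-- the key fact -/
theorem comm_le_pw (hp : p.Prime) (hG : IsPGroup p G) {c : ℕ} (H : AR G α p c) {i : ℕ} {N : Subgroup G} [hNn : N.Normal] (hN : Inv α N)
    (hND : N ≤ derivedSeries G ((c ^ (p * i)).factorial)) :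
    ⁅N, derivedSeries G ((c ^ (p * i)).factorial)⁆ ≤ pw N (p ^ i) := by
  have hPi : Inv α (pw N (p ^ i)) := pw_inv hN _
  have HQ := H.quot hp.pos (pw N (p ^ i)) hPi
  have hGQ : IsPGroup p (G ⧸ pw N (p ^ i)) := hG.to_quotient _
  haveI : (N.map (QuotientGroup.mk' (pw N (p ^ i)))).Normal := Subgroup.Normal.map hNn _ (QuotientGroup.mk'_surjective _)
  have hDm := map_derivedSeries_eq (QuotientGroup.mk'_surjective (pw N (p ^ i))) ((c ^ (p * i)).factorial)
  have h1 := comm_bot hp hGQ HQ (i := i) (Inv.map_mk hp.pos H.pow _ hPi hN) (by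
    rw [← hDm]; exact Subgroup.map_mono hND) (by
    rintro _ ⟨x, hx, rfl⟩
    rw [← map_pow]
    exact (QuotientGroup.eq_one_iff _).2 (pow_mem_pw hx))
  rw [← hDm, ← Subgroup.commutator_eq_bot_iff_le_centralizer, ← Subgroup.map_commutator, Subgroup.map_eq_bot_iff,
    QuotientGroup.ker_mk'] at h1
  exact h1

omit [Finite G] in
lemma pw_pw_le {N : Subgroup G} {a b : ℕ} : pw N (a * b) ≤ pw (pw N a) b := pw_le fun x hx => by
  rw [pow_mul]; exact pow_mem_pw (pow_mem_pw hx)

/-- proper power subgroups -/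
lemma eq_bot_of_pw [hpf : Fact p.Prime] (hG : IsPGroup p G) {N : Subgroup G} (h : N ≤ pw N p) : N = ⊥ := by
  by_contra hne
  haveI : Nontrivial N := (Subgroup.nontrivial_iff_ne_bot N).2 hne
  have hN : IsPGroup p N := hG.to_subgroup N
  have h1 : pw N p ≤ (frattini N).map N.subtype := pw_le fun x hx =>
    ⟨(⟨x, hx⟩ : N) ^ p, Solv.pow_mem_frattini_of_pGroup hN _, rfl⟩
  have h2 : frattini N = ⊤ := by
    rw [eq_top_iff]
    intro x _
    obtain ⟨y, hy, hyx⟩ := h1 (h x.2)
    have : y = x := Subtype.ext hyx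
    rwa [← this]
  obtain ⟨M, hM, -⟩ := (eq_top_or_exists_le_coatom (⊥ : Subgroup N)).resolve_left bot_ne_top
  have h3 := frattini_le_coatom hM
  rw [h2] at h3
  exact hM.1 (top_le_iff.1 h3)

/-- the end of the chain argument -/
theorem pw_bot_of_relIndex [hpf : Fact p.Prime] (hG : IsPGroup p G) {N : Subgroup G} [N.Normal] {i s : ℕ} (hsi : s < i)
    (h : (pw N (p ^ i)).relIndex N ≤ p ^ s) : pw N (p ^ i) = ⊥ := by
  have hN : IsPGroup p N := hG.to_subgroup N
  obtain ⟨k, hk⟩ := IsPGroup.iff_card.1 hN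
  obtain ⟨j, hj, hj'⟩ := (Nat.dvd_prime_pow hpf.out).1 (hk ▸ Subgroup.relIndex_dvd_card (pw N (p ^ i)) N)
  rw [hj'] at h
  have hjs : j ≤ s := (Nat.pow_le_pow_iff_right hpf.out.one_lt).1 h
  have h1 : pw N (p ^ s) ≤ pw N (p ^ i) := pw_le fun x hx => by
    have h2 := Subgroup.pow_index_mem ((pw N (p ^ i)).subgroupOf N) (⟨x, hx⟩ : N)
    have h3 : ((pw N (p ^ i)).subgroupOf N).index = p ^ j := hj'
    rw [h3, mem_subgroupOf] at h2
    have h4 : x ^ p ^ j ∈ pw N (p ^ i) := h2
    have h5 : p ^ s = p ^ j * p ^ (s - j) := by rw [← pow_add, Nat.add_sub_cancel' hjs]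
    rw [h5, pow_mul]
    exact pow_mem h4 _
  have h2 : pw N (p ^ i) ≤ pw (pw N (p ^ s)) p := pw_le fun x hx => by
    have h5 : p ^ i = p ^ (i - s - 1) * p ^ s * p := by rw [← pow_add, ← pow_succ]; congr 1; omega
    rw [h5, pow_mul, pow_mul]
    exact pow_mem_pw (pow_mem_pw (pow_mem hx _))
  have h3 := eq_bot_of_pw hG (h1.trans h2)
  rw [h3] at h2
  rw [eq_bot_iff]
  refine h2.trans (pw_le ?_)
  intro x hx
  rw [mem_bot] at hx
  rw [hx, one_pow]; exact one_mem _

end Cfsg.Agent.AL
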